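import Cfsg.Agent.H884.HermGL
set_option linter.all false

/-!
# Overgroups of unitary groups in orthogonal groups, dimension at least nine

Lower-dimensional version of `H884/Herm.lean`.
-/

set_option autoImplicit false
set_option linter.unusedSectionVars false

namespace Cfsg.Agent.H926.HermLow

open QuadraticMap Cfsg.Agent.LieClassical.OrthCore Cfsg.Agent.LieClassical.OrthTrans
  Cfsg.Agent.LieClassical.OrthFinite Cfsg.Agent.ClassicalGeometry.OrthAutBasic
  Cfsg.Agent.H887.SiegelMethod Cfsg.Agent.H884 Cfsg.Agent.H884.SingMax Cfsg.Agent.H884.HermMax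

variable {F V : Type*} [Field F] [AddCommGroup V] [Module F V] {Q : QuadraticForm F V}
variable {j : V →ₗ[F] V} {a b : F} {H : Subgroup (V ≃ₗ[F] V)}

/-- In a subspace: a singular vector of the `K`-perp of `y`, outside `K y`, not `K`-orthogonal to `w ∉ K y`. -/
theorem exists_sing_nonperp [Finite F] [FiniteDimensional F V] (hj : Herm Q j a b)
    (hQ : Nondeg Q) (hd : 7 ≤ Module.finrank F V) {y w : V} (hy : Q y = 0) (hwy : w ∉ KL j y) :
    ∃ z, Q z = 0 ∧ Perp Q (KL j y) z ∧ z ∉ KL j y ∧ ¬ Perp Q (KL j z) w := by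
  have hK := finrank_KL_le j
  by_contra hcon
  push Not at hcon
  apply hwy
  apply mem_of_perp_perp hQ
  obtain ⟨z, hzP, hz, hzn⟩ := exists_sing_perp_diff hQ (KL j y) (KL j y) (hK y) (hK y) (by omega)
  have hU := span_in hQ (fun w hw => hj.Q_KL hy hw) hz hzP hzn
    (LinearMap.ker ((polarBilin Q).flip w)) (fun v hv hvP hvn => by
      rw [LinearMap.mem_ker, LinearMap.flip_apply, polarBilin_apply_apply]
      exact hcon v hv hvP hvn v (self_mem_KL j v))
  intro v hv
  have := hU v hv
  rwa [LinearMap.mem_ker, LinearMap.flip_apply, polarBilin_apply_apply] at this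

/-- If `z` is not `K`-orthogonal to `w` then a vector `κ` of `K w` has any given product with `z`. -/
theorem exists_kappa (hj : Herm Q j a b) {z w : V} (hn : ¬ Perp Q (KL j z) w) (c : F) :
    ∃ κ ∈ KL j w, polar Q z κ = c := by
  by_cases h1 : polar Q z w = 0
  · have h2 : polar Q z (j w) ≠ 0 := by
      intro h2
      apply hn
      apply hj.perp_symm
      exact perp_KL.2 ⟨by rw [polar_comm]; exact h1, by rw [polar_comm]; exact h2⟩
    refine ⟨(c * (polar Q z (j w))⁻¹) • j w, (KL j w).smul_mem _ (j_mem_KL j w), ?_⟩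
    rw [polar_smul_right, smul_eq_mul, mul_assoc, inv_mul_cancel₀ h2, mul_one]
  · refine ⟨(c * (polar Q z w)⁻¹) • w, (KL j w).smul_mem _ (self_mem_KL j w), ?_⟩
    rw [polar_smul_right, smul_eq_mul, mul_assoc, inv_mul_cancel₀ h1, mul_one]

/-- **The key step**: `w ∈ Ts y` singular, `z` singular, both `K`-orthogonal to `y`, `z` not `K`-orthogonal to `w`:
then `K z ≤ Ts y`. -/
theorem KL_le_Ts [Finite F] [FiniteDimensional F V] (hj : Herm Q j a b) (hH : Over Q j H)
    (hQ : Nondeg Q) (hd : 9 ≤ Module.finrank F V) {y w z : V} (_ : Q y = 0) (hw : w ∈ Ts Q H y)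
    (hQw : Q w = 0) (hyw : Perp Q (KL j y) w) (hz : Q z = 0) (hyz : Perp Q (KL j y) z)
    (hzw : ¬ Perp Q (KL j z) w) : KL j z ≤ Ts Q H y := by
  have hK := finrank_KL_le j
  -- a nonsingular vector orthogonal to everything
  obtain ⟨e, heP, heQ⟩ : ∃ e, Perp Q ((KL j y ⊔ KL j w) ⊔ KL j z) e ∧ Q e ≠ 0 := by
    by_contra hcon
    push Not at hcon
    have h1 := finrank_perp_ge hQ ((KL j y ⊔ KL j w) ⊔ KL j z)
      (finrank_sup_le' _ _ (finrank_sup_le' _ _ (hK y) (hK w)) (hK z))
    set P := LinearMap.BilinForm.orthogonal (polarBilin Q) ((KL j y ⊔ KL j w) ⊔ KL j z) with hP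
    have hPm : ∀ v ∈ P, Perp Q ((KL j y ⊔ KL j w) ⊔ KL j z) v := fun v hv => mem_orthogonal_iff.1 hv
    have hw0 : w ≠ 0 := by
      rintro rfl
      apply hzw
      intro v _
      rw [polar_zero_right]
    have hdisj : P ⊓ KL j w = ⊥ := by
      rw [eq_bot_iff]
      rintro x ⟨hxP, hxw⟩
      rw [Submodule.mem_bot]
      by_contra hx0
      apply hzw
      have h2 : Perp Q (KL j z) x := (hPm x hxP).of_sup_right
      exact hj.perp_of_mem h2 (hj.KL_symm hxw hx0)
    have hKw : Module.finrank F (KL j w) = 2 := by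
      refine le_antisymm (hK w) ?_
      have hli : LinearIndependent F ![w, j w] := by
        rw [LinearIndependent.pair_iff]
        intro s t h
        exact hj.indep hw0 h
      have h3 := finrank_span_eq_card hli
      rw [Fintype.card_fin] at h3
      refine le_trans (le_of_eq h3.symm) ?_
      apply Submodule.finrank_mono
      apply Submodule.span_mono
      rintro v ⟨i, rfl⟩
      fin_cases i
      · exact Or.inl rfl
      · exact Or.inr rfl
    have hsing : ∀ v ∈ P ⊔ KL j w, Q v = 0 := by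
      intro v hv
      obtain ⟨p, hp, k, hk, rfl⟩ := Submodule.mem_sup.1 hv
      have h4 : polar Q k p = 0 := (hPm p hp).of_sup_left.of_sup_right k hk
      rw [Q_add, hcon p (hPm p hp), hj.Q_KL hQw hk, polar_comm, h4]
      simp
    have h5 := SingMaxPlus.two_mul_finrank_le hQ hsing
    have h6 := Submodule.finrank_sup_add_finrank_inf_eq P (KL j w)
    rw [hdisj, finrank_bot, hKw] at h6
    omega
  have hye : Perp Q (KL j y) e := heP.of_sup_left.of_sup_left
  have hwe : Perp Q (KL j w) e := heP.of_sup_left.of_sup_right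
  have hze : Perp Q (KL j z) e := heP.of_sup_right
  obtain ⟨κ, hκ, hzκ⟩ := exists_kappa hj hzw (-Q e)
  have hQκ : Q κ = 0 := hj.Q_KL hQw hκ
  have hyκ : Perp Q (KL j y) κ := hj.perp_of_mem hyw hκ
  -- the vector `z'`
  set z' := z + κ + e with hz'
  have hκe : polar Q κ e = 0 := hwe κ hκ
  have hze' : polar Q z e = 0 := hze z (self_mem_KL j z)
  have hQz' : Q z' = 0 := by
    rw [hz', Q_add, Q_add, hz, hQκ, hzκ, polar_add_left, hze', hκe]
    ring
  have hyz' : Perp Q (KL j y) z' := (hyz.add hyκ).add hye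
  have hz'y : Perp Q (KL j z') y := hj.perp_symm hyz'
  have hzy : Perp Q (KL j z) y := hj.perp_symm hyz
  have d0 := D_mem_Ts hj hH hz hzy hw
  have d1 := D_mem_Ts hj hH hz hzy (D_mem_Ts hj hH hQz' hz'y hw)
  -- compute
  set p := polar Q z w with hp
  set r := polar Q (j z) w with hr
  set X := polar Q (j z) κ with hX
  have hκw : ∀ κ' ∈ KL j w, polar Q κ' w = 0 := by
    intro κ' hκ'
    obtain ⟨s, t, rfl⟩ := mem_KL.1 hκ'
    have h7 : polar Q w w = 0 := by rw [polar_self, hQw]; simp
    have h8 : polar Q (j w) w = 0 := by rw [polar_comm]; exact hj.polar_j_self hQw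
    rw [polar_add_left, polar_smul_left, polar_smul_left, h7, h8]
    simp
  have hew : ∀ e' ∈ KL j e, polar Q e' w = 0 := by
    intro e' he'
    have h9 : Perp Q (KL j w) e' := hj.perp_of_mem hwe he'
    rw [polar_comm]
    exact h9 w (self_mem_KL j w)
  have e1 : polar Q z' w = p := by
    rw [hz', polar_add_left, polar_add_left, hκw κ hκ, hew e (self_mem_KL j e), add_zero, add_zero]
  have e2 : polar Q (j z') w = r := by
    rw [hz', map_add, map_add, polar_add_left, polar_add_left, hκw _ (hj.j_mem hκ), hew _ (j_mem_KL j e),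
      add_zero, add_zero]
  have e3 : polar Q z z' = -Q e := by
    have : polar Q z z = 0 := by rw [polar_self, hz]; simp
    rw [hz', polar_add_right, polar_add_right, this, hzκ, hze', zero_add, add_zero]
  have e4 : polar Q (j z) z' = X := by
    have h10 : polar Q (j z) z = 0 := by rw [polar_comm]; exact hj.polar_j_self hz
    rw [hz', polar_add_right, polar_add_right, h10, hze _ (j_mem_KL j z), zero_add, add_zero]
  have e5 : polar Q z (j z') = - a * Q e - X := by
    rw [← e4, hj.adj z z', polar_sub_right, polar_smul_right, e3]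
    simp only [smul_eq_mul]
    ring
  have e6 : polar Q (j z) (j z') = - b * Q e := by
    rw [hj.adj z (j z'), hj.sq, ← sub_add, sub_self, zero_add, polar_smul_right, e3]
    simp only [smul_eq_mul]
    ring
  have hD0 : D Q j z w = p • j z - r • z := rfl
  have hD1 : D Q j z' w = p • j z' - r • z' := by rw [D, e1, e2]
  have hD2 : D Q j z (D Q j z' w) =
      (p * (- a * Q e - X) + r * Q e) • j z - (- (p * b * Q e) - r * X) • z := by
    rw [hD1, D, polar_sub_right, polar_sub_right, polar_smul_right, polar_smul_right, polar_smul_right,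
      polar_smul_right, e3, e4, e5, e6]
    simp only [smul_eq_mul]
    module
  have hd2 : Q e • ((r - a * p) • j z + (b * p) • z) ∈ Ts Q H y := by
    have h11 := (Ts Q H y).add_mem d1 ((Ts Q H y).smul_mem X d0)
    rw [hD2, hD0] at h11
    have h12 : (p * (- a * Q e - X) + r * Q e) • j z - (- (p * b * Q e) - r * X) • z + X • (p • j z - r • z) =
        Q e • ((r - a * p) • j z + (b * p) • z) := by module
    rwa [h12] at h11
  have hd3 : (r - a * p) • j z + (b * p) • z ∈ Ts Q H y := by
    have h13 := (Ts Q H y).smul_mem (Q e)⁻¹ hd2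
    rwa [smul_smul, inv_mul_cancel₀ heQ, one_smul] at h13
  rw [hD0] at d0
  have hN : r * r - a * (p * r) + b * (p * p) ≠ 0 := by
    intro h
    have h' : r * r + a * (r * (-p)) + b * ((-p) * (-p)) = 0 := by linear_combination h
    obtain ⟨h14, h15⟩ := hj.irr r (-p) h'
    apply hzw
    exact perp_KL.2 ⟨neg_eq_zero.1 h15, h14⟩
  set N := r * r - a * (p * r) + b * (p * p) with hNdef
  have m1 : z ∈ Ts Q H y := by
    have h16 := (Ts Q H y).sub_mem ((Ts Q H y).smul_mem p hd3) ((Ts Q H y).smul_mem (r - a * p) d0)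
    have h17 : p • ((r - a * p) • j z + (b * p) • z) - (r - a * p) • (p • j z - r • z) = N • z := by
      rw [hNdef]; module
    rw [h17] at h16
    have h18 := (Ts Q H y).smul_mem N⁻¹ h16
    rwa [smul_smul, inv_mul_cancel₀ hN, one_smul] at h18
  have m2 : j z ∈ Ts Q H y := by
    have h16 := (Ts Q H y).add_mem ((Ts Q H y).smul_mem r hd3) ((Ts Q H y).smul_mem (b * p) d0)
    have h17 : r • ((r - a * p) • j z + (b * p) • z) + (b * p) • (p • j z - r • z) = N • j z := by
      rw [hNdef]; module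
    rw [h17] at h16
    have h18 := (Ts Q H y).smul_mem N⁻¹ h16
    rwa [smul_smul, inv_mul_cancel₀ hN, one_smul] at h18
  intro v hv
  obtain ⟨s, t, rfl⟩ := mem_KL.1 hv
  exact (Ts Q H y).add_mem ((Ts Q H y).smul_mem _ m1) ((Ts Q H y).smul_mem _ m2)

/-- Lemma B. -/
theorem good'_of_not_le [Finite F] [FiniteDimensional F V] (hj : Herm Q j a b) (hH : Over Q j H)
    (hQ : Nondeg Q) (hd : 9 ≤ Module.finrank F V) {y w : V} (hy : Q y = 0)
    (hw : w ∈ Ts Q H y) (hwy : w ∉ KL j y) : Good' Q j H y := by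
  have hK := finrank_KL_le j
  -- first a singular vector `w1` in `Ts y`
  obtain ⟨z, hz, hyz, hzn, hzw⟩ := exists_sing_nonperp hj hQ (by omega) hy hwy
  obtain ⟨w1, hw1T, hw1, hyw1, hw1n⟩ : ∃ w1, w1 ∈ Ts Q H y ∧ Q w1 = 0 ∧ Perp Q (KL j y) w1 ∧ w1 ∉ KL j y := by
    have h1 := D_mem_Ts hj hH hz (hj.perp_symm hyz) hw
    have h2 := D_mem (Q := Q) (j := j) z w
    have h3 : D Q j z w ≠ 0 := by
      intro h
      apply hzw
      have hz0 : z ≠ 0 := by
        rintro rfl
        exact hzn (Submodule.zero_mem _)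
      have h4 : (- polar Q (j z) w) • z + (polar Q z w) • j z = 0 := by
        rw [← h, D]; module
      obtain ⟨h5, h6⟩ := hj.indep hz0 h4
      exact perp_KL.2 ⟨h6, neg_eq_zero.1 h5⟩
    refine ⟨_, h1, hj.Q_KL hz h2, hj.perp_of_mem hyz h2, fun h => hzn ?_⟩
    exact hj.KL_le h (hj.KL_symm h2 h3)
  obtain ⟨z0, hz0, hyz0, hz0n, hz0w⟩ := exists_sing_nonperp hj hQ (by omega) hy hw1n
  have hKz0 : KL j z0 ≤ Ts Q H y := KL_le_Ts hj hH hQ hd hy hw1T hw1 hyw1 hz0 hyz0 hz0w
  have hall : ∀ u, Q u = 0 → Perp Q (KL j y) u → u ∉ KL j y → u ∈ Ts Q H y := by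
    intro u hu hyu _
    by_cases h1 : Perp Q (KL j u) w1
    · by_cases h2 : Perp Q (KL j u) z0
      · have h3 : u + w1 ∈ Ts Q H y := by
          have h4 : polar Q u w1 = 0 := h1 u (self_mem_KL j u)
          have h5 : Q (u + w1) = 0 := by rw [Q_add, hu, hw1, h4]; simp
          refine KL_le_Ts hj hH hQ hd hy (hKz0 (self_mem_KL j z0)) hz0 hyz0 h5 (hyu.add hyw1) ?_
            (self_mem_KL j _)
          intro h6
          apply hz0w
          have h7 := hj.perp_symm h6
          have h8 := hj.perp_symm h2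
          have h9 : Perp Q (KL j z0) ((u + w1) - u) := by
            intro v hv
            rw [polar_sub_right, h7 v hv, h8 v hv, sub_zero]
          rwa [add_sub_cancel_left] at h9
        have h10 := (Ts Q H y).sub_mem h3 hw1T
        rwa [add_sub_cancel_right] at h10
      · exact KL_le_Ts hj hH hQ hd hy (hKz0 (self_mem_KL j z0)) hz0 hyz0 hu hyu h2 (self_mem_KL j u)
    · exact KL_le_Ts hj hH hQ hd hy hw1T hw1 hyw1 hu hyu h1 (self_mem_KL j u)
  exact span_in hQ (fun z hz => hj.Q_KL hy hz) hw1 hyw1 hw1n (Ts Q H y) hall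

/-- Lemma D: `Good'` spreads. -/
theorem Good'.spread [Finite F] [FiniteDimensional F V] (hj : Herm Q j a b) (hH : Over Q j H)
    (hQ : Nondeg Q) (hd : 9 ≤ Module.finrank F V) {y y' : V} (hy : Q y = 0) (hy0 : y ≠ 0)
    (hg : Good' Q j H y) (hy' : Q y' = 0) (hy0' : y' ≠ 0) : Good' Q j H y' := by
  have hK := finrank_KL_le j
  have step : ∀ y u : V, Q y = 0 → y ≠ 0 → Q u = 0 → Good' Q j H y → Perp Q (KL j y) u →
      u ∉ KL j y → Good' Q j H u := by
    intro y u hy hy0 hu hg hyu huy
    have h1 : u ∈ Ts Q H y := hg u hyu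
    rw [mem_Ts_comm hy hu] at h1
    refine good'_of_not_le hj hH hQ hd hu h1 ?_
    intro h
    exact huy (hj.KL_symm h hy0)
  obtain ⟨u, huP, hu, hun⟩ := exists_sing_perp_diff hQ (KL j y ⊔ KL j y') (KL j y)
    (finrank_sup_le' _ _ (hK y) (hK y')) (hK y) (by omega)
  have hu0 : u ≠ 0 := by
    rintro rfl
    exact hun (Submodule.zero_mem _)
  have g1 := step y u hy hy0 hu hg huP.of_sup_left hun
  by_cases hc : y' ∈ KL j u
  · -- then `y'` is orthogonal to `y`
    have h1 : Perp Q (KL j y) y' := hj.perp_of_mem huP.of_sup_left hc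
    refine step y y' hy hy0 hy' hg h1 ?_
    intro h2
    apply hun
    exact hj.KL_le h2 (hj.KL_symm hc hy0')
  · exact step u y' hu hu0 hy' g1 (hj.perp_symm huP.of_sup_right) hc

/-- Lemmas C, E: if some `h ∈ H` does not map the `K`-line of a singular `x` to a `K`-line, `E Q ≤ H`. -/
theorem E_le_of_moving [Finite F] (hj : Herm Q j a b) (hH : Over Q j H) (hG : Good Q)
    (hd : 9 ≤ Module.finrank F V) {h : V ≃ₗ[F] V} (hh : h ∈ H) {x : V} (hx : Q x = 0)
    (hx0 : x ≠ 0) (hmov : h (j x) ∉ KL j (h x)) : E Q ≤ H := by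
  have : FiniteDimensional F V := Module.finite_of_finrank_pos (by omega)
  have hQ := hG.nondeg
  have hO : h ∈ O Q := hH.le hh
  have hhx : Q (h x) = 0 := by rw [mem_O.1 hO]; exact hx
  have hhx0 : h x ≠ 0 := by
    intro e
    exact hx0 (h.injective (by rw [e, map_zero]))
  have hjx : j x ∈ Ts Q H x := by
    refine ⟨hj.polar_j_self hx, fun c => hH.mem x hx c⟩
  have g1 : Good' Q j H (h x) :=
    good'_of_not_le hj hH hQ hd hhx (map_mem_Ts hh hO hjx) hmov
  have gall : ∀ y, Q y = 0 → y ≠ 0 → Good' Q j H y := fun y hy hy0 =>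
    Good'.spread hj hH hQ hd hhx hhx0 g1 hy hy0
  -- `Ts x = x^⊥`
  have hfull : ∀ v, polar Q x v = 0 → v ∈ Ts Q H x := by
    -- `v1` orthogonal to the `K`-line of `h x` and not to `h (j x)`
    obtain ⟨v1, hv1, hv1'⟩ := exists_perp_polar_ne hQ (KL j (h x)) hmov
    have hsymm : h.symm ∈ H := H.inv_mem hh
    have h1 : v1 ∈ Ts Q H (h x) := g1 v1 hv1
    have h2 := map_mem_Ts (H.inv_mem hh) ((O Q).inv_mem hO) h1
    have e1 : h⁻¹ (h x) = x := h.symm_apply_apply x
    rw [e1] at h2
    have h3 : polar Q (j x) (h⁻¹ v1) ≠ 0 := by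
      have := polar_map hO (j x) (h⁻¹ v1)
      have e2 : h (h⁻¹ v1) = v1 := h.apply_symm_apply v1
      rw [e2] at this
      rw [← this]
      exact hv1'
    intro v hv
    set c := polar Q (j x) v * (polar Q (j x) (h⁻¹ v1))⁻¹ with hc
    have h4 : v - c • h⁻¹ v1 ∈ Ts Q H x := by
      apply gall x hx hx0
      refine perp_KL.2 ⟨?_, ?_⟩
      · rw [polar_sub_right, polar_smul_right, hv, h2.1]
        simp
      · rw [polar_sub_right, polar_smul_right, hc, smul_eq_mul, mul_assoc, inv_mul_cancel₀ h3,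
          mul_one, sub_self]
    have h5 := (Ts Q H x).add_mem h4 ((Ts Q H x).smul_mem c h2)
    rwa [sub_add_cancel] at h5
  -- a second full point
  obtain ⟨y, hy⟩ := exists_hyp hQ hx hx0
  obtain ⟨w, hwP, hw⟩ : ∃ w, Perp Q (KL j y) w ∧ Q w ≠ 0 := by
    by_contra hcon
    push Not at hcon
    have h1 := SingMaxPlus.two_mul_finrank_le hQ
      (W := LinearMap.BilinForm.orthogonal (polarBilin Q) (KL j y))
      (fun w hw => hcon w (mem_orthogonal_iff.1 hw))
    have h2 := finrank_perp_ge hQ (KL j y) (finrank_KL_le j y)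
    omega
  have hyw : polar Q y w = 0 := (perp_KL.1 hwP).1
  have hg : T Q y w ∈ H := Ts_mem (gall y hy.right hy.right_ne w hwP)
  have hpol : polar Q x (T Q y w x) ≠ 0 := by
    rw [T_apply hy.right hyw, polar_sub_right, polar_sub_right, polar_add_right,
      polar_smul_right, polar_smul_right, polar_smul_right, polar_self_of_sing hx, hy.pair',
      hy.pair, polar_comm Q w x]
    simp only [smul_eq_mul]
    intro h0
    apply hw
    linear_combination -h0
  have hTO : T Q y w ∈ O Q := T_mem_O y w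
  refine E_le_of_Ts hG hx (by rw [mem_O.1 hTO]; exact hx) hpol hfull ?_
  intro v hv
  have h1 : polar Q x ((T Q y w)⁻¹ v) = 0 := by
    rw [← polar_map hTO]
    have e : (T Q y w) ((T Q y w)⁻¹ v) = v := (T Q y w).apply_symm_apply v
    rw [e]
    exact hv
  have h2 := map_mem_Ts hg hTO (hfull _ h1)
  have e : (T Q y w) ((T Q y w)⁻¹ v) = v := (T Q y w).apply_symm_apply v
  rwa [e] at h2

/-- Lemma F: a linear map preserving all singular `K`-lines is in `K`. -/
theorem exists_mem_K [Finite F] (hj : Herm Q j a b) (hG : Good Q)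
    (hd : 9 ≤ Module.finrank F V) (g : V →ₗ[F] V) (hg : ∀ x, Q x = 0 → g x ∈ KL j x) :
    ∃ s t : F, ∀ x, g x = s • x + t • j x := by
  have : FiniteDimensional F V := Module.finite_of_finrank_pos (by omega)
  have hQ := hG.nondeg
  have hK := finrank_KL_le j
  -- orthogonal independent singular vectors have the same coefficients
  have step : ∀ x y : V, Q x = 0 → Q y = 0 → polar Q x y = 0 → x ≠ 0 → y ∉ KL j x →
      ∀ s t : F, g x = s • x + t • j x → g y = s • y + t • j y := by
    intro x y hx hy hxy hx0 hyn s t e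
    have hy0 : y ≠ 0 := by
      rintro rfl
      exact hyn (Submodule.zero_mem _)
    obtain ⟨s', t', e'⟩ := mem_KL.1 (hg y hy)
    obtain ⟨s'', t'', e''⟩ := mem_KL.1 (hg (x + y) (by rw [Q_add, hx, hy, hxy]; simp))
    rw [map_add, map_add, e, ← e'] at e''
    have h1 : (s'' - s) • x + (t'' - t) • j x = - ((s'' - s') • y + (t'' - t') • j y) := by
      rw [← sub_eq_zero]
      have := sub_eq_zero.2 e''
      rw [← this]
      module
    have h2 : (s'' - s') • y + (t'' - t') • j y = 0 := by
      by_contra hne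
      apply hyn
      have h3 : (s'' - s') • y + (t'' - t') • j y ∈ KL j x := by
        have : (s'' - s) • x + (t'' - t) • j x ∈ KL j x := mem_KL.2 ⟨_, _, rfl⟩
        rw [h1] at this
        have := (KL j x).neg_mem this
        rwa [neg_neg] at this
      have h4 : (s'' - s') • y + (t'' - t') • j y ∈ KL j y := mem_KL.2 ⟨_, _, rfl⟩
      have h5 := hj.KL_symm h4 hne
      exact hj.KL_le h3 h5
    rw [h2, neg_zero] at h1
    have h3 := hj.indep hx0 h1
    have h4 := hj.indep hy0 h2
    rw [← e', ← sub_eq_zero.1 h4.1, ← sub_eq_zero.1 h4.2, sub_eq_zero.1 h3.1, sub_eq_zero.1 h3.2]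
  obtain ⟨x, hx0, hx⟩ := hG.sing
  obtain ⟨s, t, e⟩ := mem_KL.1 (hg x hx)
  have hall : ∀ y, Q y = 0 → g y = s • y + t • j y := by
    intro y hy
    by_cases hy0 : y = 0
    · rw [hy0]; simp
    have hspan : Module.finrank F (Submodule.span F {x, y}) ≤ 2 := by
      classical
      have h := finrank_span_finset_le_card (R := F) ({x, y} : Finset V)
      rw [Finset.coe_pair] at h
      exact h.trans Finset.card_le_two
    obtain ⟨u, huP, hu, hun⟩ := exists_sing_perp_diff hQ (Submodule.span F {x, y}) (KL j x ⊔ KL j y)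
      hspan (finrank_sup_le' _ _ (hK x) (hK y)) (by omega)
    have hu0 : u ≠ 0 := by
      rintro rfl
      exact hun (Submodule.zero_mem _)
    have h1 : polar Q x u = 0 := huP x (Submodule.subset_span (Or.inl rfl))
    have h2 : polar Q u y = 0 := by
      rw [polar_comm]; exact huP y (Submodule.subset_span (Or.inr rfl))
    have e1 := step x u hx hu h1 hx0 (fun h => hun (Submodule.mem_sup_left h)) s t e.symm
    refine step u y hu hy h2 hu0 ?_ s t e1
    intro h
    exact hun (Submodule.mem_sup_right (hj.KL_symm h hy0))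
  refine ⟨s, t, fun v => ?_⟩
  obtain ⟨x', y', hxy⟩ := hG.exists_hyp
  have := span_in hQ (W := ⊥) (by
    intro w hw
    rw [(Submodule.mem_bot F).1 hw, QuadraticMap.map_zero]) hxy.left (fun w hw => by
      rw [(Submodule.mem_bot F).1 hw, polar_zero_left]) (fun h => hxy.left_ne h)
    (LinearMap.ker (g - (s • LinearMap.id + t • j))) (fun v hv _ _ => by
      rw [LinearMap.mem_ker, LinearMap.sub_apply, hall v hv]
      simp) v (fun w hw => by rw [(Submodule.mem_bot F).1 hw, polar_zero_left])
  rw [LinearMap.mem_ker, LinearMap.sub_apply] at this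
  have h2 := sub_eq_zero.1 this
  rw [h2]
  simp

/-- **The overgroups.** -/
theorem dichotomy [Finite F] (hj : Herm Q j a b) (hH : Over Q j H) (hG : Good Q)
    (hd : 9 ≤ Module.finrank F V) :
    E Q ≤ H ∨ ∀ h ∈ H, ∃ s t : F, ∀ x, h (j (h.symm x)) = s • x + t • j x := by
  by_cases hmov : ∃ h ∈ H, ∃ x, Q x = 0 ∧ x ≠ 0 ∧ h (j x) ∉ KL j (h x)
  · left
    obtain ⟨h, hh, x, hx, hx0, hm⟩ := hmov
    exact E_le_of_moving hj hH hG hd hh hx hx0 hm
  · right
    push Not at hmov
    intro h hh
    obtain ⟨s, t, e⟩ := exists_mem_K hj hG hd (h.toLinearMap ∘ₗ j ∘ₗ h.symm.toLinearMap) (by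
      intro x hx
      by_cases hx0 : x = 0
      · rw [hx0, map_zero]; exact Submodule.zero_mem _
      have hO := hH.le (H.inv_mem hh)
      have h1 : Q (h.symm x) = 0 := by
        have := mem_O.1 hO x
        rw [hx] at this
        exact this
      have h2 := hmov h hh (h.symm x) h1 (by
        intro e
        exact hx0 (by have := congrArg h e; rwa [LinearEquiv.apply_symm_apply, map_zero] at this))
      rwa [LinearEquiv.apply_symm_apply] at h2)
    exact ⟨s, t, e⟩

open Cfsg.Geo Cfsg.Agent.H887.OmegaBridge Cfsg.Agent.H884.HermGL in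
/-- **The normaliser of a quadratic field of similarities is maximal in `Ω`**, dimension at least nine. -/
theorem quadratic_field_normalizer_isMaximalIn {ι : Type} [Fintype ι] [DecidableEq ι] [Finite F]
    (hn : 9 ≤ Fintype.card ι)
    {Q : (ι → F) → F} (hQ : IsNondegenerateQuadraticForm Q) {K : Subalgebra F (Matrix ι ι F)}
    (hK : IsFieldSubalgebra 2 K) (hac : IsAdjointClosedFor (polar Q) K)
    (hnsa : ¬ IsSelfAdjointFor (polar Q) K)
    (hsc : ∀ k ∈ K, ∃ c : F, ∀ v : ι → F, Q (Matrix.mulVec k v) = c * Q v) :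
    IsMaximalIn (omegaGL Q) (subalgebraNormalizer K ⊓ omegaGL Q) := by
  have : Nonempty ι := Fintype.card_pos_iff.1 (by omega)
  obtain ⟨J, hJK, hJ, hgen⟩ := exists_gen hK
  obtain ⟨a, b, hj⟩ := exists_herm hQ hK hac hnsa hsc hJK hJ hgen
  have hdim : Module.finrank F (ι → F) = Fintype.card ι := Module.finrank_fintype_fun_eq_card F
  have hG : Good (qf Q hQ) := good_of_finite (nondeg_qf Q hQ) (by omega)
  refine isMaximalIn_omegaGL Q hQ hG (subalgebraNormalizer K) (normSet (Matrix.toLin' J))
    (mem_subalgebraNormalizer_iff hJK hJ hgen) ?_ ?_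
  · by_contra hcon
    push Not at hcon
    apply Cfsg.Agent.H925.omegaGL_not_le_subalgebraNormalizer hQ (by omega) le_rfl hK
    intro g hg
    rw [mem_subalgebraNormalizer_iff hJK hJ hgen]
    exact hcon _ ((mem_omegaGL_iff Q hQ hG g).1 hg)
  · intro H hHE hSH hex
    have hOver : Over (qf Q hQ) (Matrix.toLin' J) H := by
      refine ⟨hHE.trans E_le_O, fun z hz c => hSH _ (T_mem_E _ _) ?_⟩
      have hjz : qf Q hQ (c • Matrix.toLin' J z) = 0 := by
        rw [QuadraticMap.map_smul, hj.norm, hz]; simp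
      have hpz : polar (qf Q hQ) z (c • Matrix.toLin' J z) = 0 := by
        rw [polar_smul_right, hj.polar_j_self hz, smul_zero]
      have hT : ∀ v, T (qf Q hQ) z (c • Matrix.toLin' J z) v =
          v + c • D (qf Q hQ) (Matrix.toLin' J) z v := by
        intro v
        rw [Cfsg.Agent.H887.SiegelMethod.T_apply_root hz hjz hpz, D, polar_smul_left]
        simp only [smul_eq_mul]
        module
      refine ⟨0, 1, fun x => ?_⟩
      obtain ⟨y, rfl⟩ := (T (qf Q hQ) z (c • Matrix.toLin' J z)).surjective x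
      rw [LinearEquiv.symm_apply_apply, hT, hT, map_add, map_smul, ← hj.D_j, zero_smul, one_smul,
        zero_add]
    rcases dichotomy hj hOver hG (by omega) with h | h
    · exact h
    · obtain ⟨g, hg, hgn⟩ := hex
      exact absurd (h g hg) hgn

end Cfsg.Agent.H926.HermLow
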