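import Cfsg.Agent.H885.NondegGeo
import Cfsg.Agent.H885.NonsingVec
import Cfsg.Agent.H884.SingMaxPlus
set_option linter.all false

/-!
Stabilisers of nondegenerate, singular, and nonsingular subspaces in small dimension (`10 ≤ n`), in the
vocabulary of the statements.
-/

set_option autoImplicit false

namespace Cfsg.Agent.H926.NondegLow

open QuadraticMap Cfsg.Agent.LieClassical.OrthCore Cfsg.Agent.LieClassical.OrthTrans
  Cfsg.Agent.LieClassical.OrthFinite Cfsg.Agent.LieClassical.OrthSimple Cfsg.Agent.H885.RootT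
  Cfsg.Agent.H885.Irr Cfsg.Agent.H883.Bridge Cfsg.Agent.H885.Nondeg Cfsg.Agent.H885.NondegGeo

variable {ι : Type} [Fintype ι] [DecidableEq ι] {F : Type*} [Field F]

/-- **Nondegenerate subspaces `W` with `2 dim W ≠ n`, one of `W`, `W^⊥` of dimension at least six.** -/
theorem nondegenerate_maximal [Fintype F] {Q : (ι → F) → F}
    (hQ : Cfsg.Geo.IsNondegenerateQuadraticForm Q) (hd : 10 ≤ Fintype.card ι)
    (W : Submodule F (ι → F)) (hW0 : W ≠ ⊥) (hW1 : W ≠ ⊤)
    (hdim : 2 * Module.finrank F W ≠ Fintype.card ι)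
    (hW : Cfsg.Geo.IsNondegenerateOn (QuadraticMap.polar Q) W)
    (hexW : ¬ (Fintype.card F ≤ 3 ∧ Module.finrank F W = 2 ∧ Cfsg.Geo.IsPlusTypeOn Q W))
    (hexU : ¬ (Fintype.card F ≤ 3 ∧ Module.finrank F W + 2 = Fintype.card ι)) :
    Cfsg.Geo.IsMaximalIn (Cfsg.Geo.omegaGL Q)
      (Cfsg.Geo.subspaceStabilizer W ⊓ Cfsg.Geo.omegaGL Q) := by
  refine subspaceStabilizer_maximal hQ (by omega) W fun Q' hQ' hG => ?_
  subst hQ'
  have hnd := ndOn_of_geo hW
  have hs := split_perp hnd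
  have hfr := hs.finrank hG.nondeg
  rw [Module.finrank_fintype_fun_eq_card] at hfr
  have hU0 : perp Q' W ≠ ⊥ := by
    intro h0
    apply hW1
    have := hs.sup
    rwa [h0, sup_bot_eq] at this
  have hniso : ∀ g ∈ E Q', (perp Q' W).map (g : (ι → F) →ₗ[F] (ι → F)) ≠ W := by
    intro g _ heq
    have h1 := LinearEquiv.finrank_map_eq g (perp Q' W)
    rw [heq] at h1
    omega
  rcases le_total (Module.finrank F W) (Module.finrank F (perp Q' W)) with hle | hle
  · refine hs.maximal hG.nondeg (by omega) hle hW0 ?_ hniso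
    rintro ⟨h1, h2, x, hx, hx0, hQx⟩
    rw [Nat.card_eq_fintype_card] at h1
    exact hexW ⟨h1, h2, plusType_of_sing h2 hx hx0 hQx⟩
  · rw [hs.stab_inf_E hG.nondeg]
    refine hs.symm.maximal hG.nondeg (by omega) hle hU0 ?_ fun g hg heq => ?_
    · rintro ⟨h1, h2, -⟩
      rw [Nat.card_eq_fintype_card] at h1
      exact hexU ⟨h1, by omega⟩
    · have h1 := LinearEquiv.finrank_map_eq g W
      rw [heq] at h1
      omega

/-- Minus type: totally singular subspaces. -/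
theorem singular_minus [Fintype F] {n : ℕ} (hn : 6 ≤ n) (heven : Even n) (Q : (Fin n → F) → F)
    (hQ : Cfsg.Geo.IsNondegenerateQuadraticForm Q) (hminus : ¬ Cfsg.Geo.IsPlusTypeOn Q ⊤)
    (W : Submodule F (Fin n → F)) (hW0 : W ≠ ⊥) (hW : Cfsg.Geo.IsTotallySingularQuad Q W) :
    Cfsg.Geo.IsMaximalIn (Cfsg.Geo.omegaGL Q)
      (Cfsg.Geo.subspaceStabilizer W ⊓ Cfsg.Geo.omegaGL Q) := by
  refine Cfsg.Agent.H884.OmegaGL.singular_stabilizer_isMaximalIn Q hQ (by rw [Fintype.card_fin]; omega)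
    hW0 hW ?_
  rintro ⟨x, hx, hxW, hxn⟩
  rw [Fintype.card_fin]
  have hnd := Cfsg.Agent.H884.OmegaGL.nondeg_bundle Q hQ
  have h0 := Cfsg.Agent.H884.SingMaxPlus.sup_span_singular (Q := Cfsg.Agent.H884.OmegaGL.bundle Q hQ)
    hW hx hxW
  have h1 := Cfsg.Agent.H884.SingMaxPlus.two_mul_finrank_le hnd h0
  have h2 := Cfsg.Agent.H884.SingMaxPlus.finrank_sup_span hxn
  rw [h2, Module.finrank_fintype_fun_eq_card, Fintype.card_fin] at h1
  obtain ⟨k, hk⟩ := heven
  by_contra hlt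
  apply hminus
  refine ⟨W ⊔ Submodule.span F {x}, le_top, h0, ?_⟩
  rw [h2, finrank_top, Module.finrank_fintype_fun_eq_card, Fintype.card_fin]
  omega

/-- Even characteristic: nonsingular vectors. -/
theorem nonsingular_vector [Fintype F] (hn : 7 ≤ Fintype.card ι) (Q : (ι → F) → F)
    (hQ : Cfsg.Geo.IsNondegenerateQuadraticForm Q) (hchar : ¬ Odd (Fintype.card F)) (v : ι → F)
    (hv : Q v ≠ 0) : Cfsg.Geo.IsMaximalIn (Cfsg.Geo.omegaGL Q)
      (Cfsg.Geo.subspaceStabilizer (Submodule.span F {v}) ⊓ Cfsg.Geo.omegaGL Q) := by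
  refine Cfsg.Agent.H883.Bridge.subspaceStabilizer_maximal hQ (by omega) _ fun Q' hQ' hG => ?_
  refine Cfsg.Agent.H885.NonsingVec.maximal hG.nondeg
    (by rw [Module.finrank_fintype_fun_eq_card]; omega)
    (Cfsg.Agent.H885.NonsingVec.two_eq_zero_of_not_odd hchar) ?_
  rw [hQ']
  exact hv

end Cfsg.Agent.H926.NondegLow
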